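import Cfsg.Agent.H948.OnPO

/-!
# S3855 (project helper952): block frames, the case `m = 4`, `p ≥ 5` included (helper948)
-/

set_option autoImplicit false

namespace Cfsg.Agent.H948.OnFour

open QuadraticMap Cfsg.Agent.LieClassical.OrthCore Cfsg.Agent.LieClassical.OrthTrans
  Cfsg.Agent.LieClassical.OrthSimple Cfsg.Agent.LieClassical.OrthFinite
  Cfsg.Agent.ClassicalGeometry.OrthSemi Cfsg.Agent.ClassicalGeometry.OrthSemiForms
  Cfsg.Agent.ClassicalGeometry.OrthSemiCount Cfsg.Agent.H709.OrthFrame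
  Cfsg.Agent.LieClassical.OrthForms Cfsg.Agent.H709.GmnPOmega Cfsg.Agent.H467.OddNorm Cfsg.Agent.H948.OnPO

section Transfer

variable {F V V' : Type*} [Field F] [AddCommGroup V] [Module F V] [AddCommGroup V'] [Module F V']

/-- transport of semisimilitudes -/
theorem isSS_transport {Q : QuadraticForm F V} {Q' : QuadraticForm F V'} {e : V ≃ₗ[F] V'}
    (he : ∀ v, Q' (e v) = Q v) {σ : F ≃+* F} {c : F} {M : Equiv.Perm V} (h : IsSS Q σ c M) :
    IsSS Q' σ c (e.toEquiv.symm.trans (M.trans e.toEquiv)) := by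
  refine ⟨h.ne, fun u v => ?_, fun a v => ?_, fun v => ?_⟩
  · show e (M (e.symm (u + v))) = e (M (e.symm u)) + e (M (e.symm v))
    rw [map_add, h.add, map_add]
  · show e (M (e.symm (a • v))) = σ a • e (M (e.symm v))
    rw [map_smul, h.smul, map_smul]
  · show Q' (e (M (e.symm v))) = c * σ (Q' v)
    rw [he, h.form, ← he, LinearEquiv.apply_symm_apply]

theorem index_dvd {Q : QuadraticForm F V} {Q' : QuadraticForm F V'} {e : V ≃ₗ[F] V'}
    (he : ∀ v, Q' (e v) = Q v) : (Psi Q').range.index ∣ (Psi Q).range.index := by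
  let ε : PE Q ≃* PE Q' := quotientCenterCongr (eE he)
  have hle : (Psi Q).range.map (MulAut.congr ε).toMonoidHom ≤ (Psi Q').range := by
    rintro _ ⟨_, ⟨M, rfl⟩, rfl⟩
    obtain ⟨σ, c, hM⟩ := M.2
    refine ⟨⟨e.toEquiv.symm.trans (M.1.trans e.toEquiv), σ, c, isSS_transport he hM⟩, ?_⟩
    apply MulEquiv.ext
    intro x
    obtain ⟨y, rfl⟩ := ε.surjective x
    induction y using QuotientGroup.induction_on with
    | H h =>
      have h1 : ε (QuotientGroup.mk h) = QuotientGroup.mk (eE he h) := rfl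
      have h2 : (MulAut.congr ε) (Psi Q M) (ε (QuotientGroup.mk h)) = ε (Psi Q M (QuotientGroup.mk h)) := by
        show ε (Psi Q M (ε.symm (ε (QuotientGroup.mk h)))) = _
        rw [MulEquiv.symm_apply_apply]
      refine Eq.trans ?_ h2.symm
      rw [h1, Psi_mk, Psi_mk]
      refine congrArg QuotientGroup.mk (Subtype.ext (LinearEquiv.ext fun v => ?_))
      show e (M.1 (e.symm (e (h.1 (e.symm (e (M.1⁻¹ (e.symm v)))))))) = e (M.1 (h.1 (M.1⁻¹ (e.symm v))))
      rw [LinearEquiv.symm_apply_apply, LinearEquiv.symm_apply_apply]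
  have h1 := Subgroup.index_dvd_of_le hle
  rwa [Subgroup.index_map_of_bijective (f := (MulAut.congr ε).toMonoidHom) (MulAut.congr ε).bijective] at h1

end Transfer

section Rows

variable {F : Type*} [Field F] [Fintype F]

theorem frame_good {W : Type*} [AddCommGroup W] [Module F W] [Finite W] {N : QuadraticForm F W} {m w : ℕ}
    (hnd : Nondeg (frm w N)) (hfr : Module.finrank F (Fin w → W) = 2 * m) (hm : 4 ≤ m) : Good (frm w N) := by
  have hMF : Module.Finite F (Fin w → W) := by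
    have : Module.Finite F W := Module.Finite.of_finite
    infer_instance
  exact good_of_finite hnd (by rw [hfr]; omega)

theorem frame_index {W : Type*} [AddCommGroup W] [Module F W] [Finite W] {N : QuadraticForm F W} {m w p : ℕ}
    [hp : Fact p.Prime] (hnd : Nondeg (frm w N)) (hfr : Module.finrank F (Fin w → W) = 2 * m) (hm : 4 ≤ m)
    (hm4 : m = 4 → 5 ≤ p) {j : (Fin m ⊕ Fin m → F) ≃ₗ[F] (Fin w → W)} (hj : ∀ x, frm w N (j x) = plusForm m F x) :
    ¬ p ∣ (Psi (frm w N)).range.index := by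
  by_cases h4 : m = 4
  · subst h4
    have h1 := index_dvd hj
    rw [AutOrth.Final.index_plus_four] at h1
    intro h2
    have h3 := Nat.le_of_dvd (by norm_num) (h2.trans h1)
    have := hm4 rfl
    omega
  · obtain ⟨hG, hsurj⟩ := frame_surj hnd hfr (by omega)
    exact range_index hsurj hp.out

/-- **plus type**, `p ∣ q ^ e - 1`, `e` odd, `e ∣ m`, `e < m` -/
theorem ev_plus_sub' {m p e : ℕ} [hp : Fact p.Prime] (hp2 : p ≠ 2) (hm : 4 ≤ m) (hm4 : m = 4 → 5 ≤ p)
    (he : orderOf ((Fintype.card F : ℕ) : ZMod p) = e) (ho : Odd e) (hem : e ∣ m) (hlt : e < m) :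
    Ev p (Cfsg.POmega F (Cfsg.quadFormPlus m F)) := by
  obtain ⟨q, hq⟩ : ∃ q, q = Fintype.card F := ⟨_, rfl⟩
  have hq2 : 2 ≤ q := by rw [hq]; exact Fintype.one_lt_card
  rw [← hq] at he
  obtain ⟨w, rfl⟩ : ∃ w, m = w * e := by
    obtain ⟨w, hw⟩ := hem
    exact ⟨w, by rw [hw, mul_comm]⟩
  have he0 : 1 ≤ e := ho.pos
  have hw2 : 2 ≤ w := by
    by_contra hcon
    have h1 : w ≤ 1 := by omega
    have h2 : w * e ≤ 1 * e := Nat.mul_le_mul_right e h1
    omega
  have hd := dvd_iff (p := p) (q := q) (by omega) he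
  have hmin : ∀ i, p ∣ q ^ (2 * i) - 1 → e ∣ i := by
    intro i hi
    exact (Nat.Coprime.dvd_of_dvd_mul_left (by rw [Nat.coprime_two_right]; exact ho) ((hd _).1 hi))
  have hpk : p ∣ q ^ (2 * e) - 1 := (hd _).2 (dvd_mul_left e 2)
  have hpQ : p ∣ q ^ e - 1 := (hd _).2 dvd_rfl
  have hQ2 : 2 ≤ q ^ e := by
    have h1 : q ^ 1 ≤ q ^ e := Nat.pow_le_pow_right (by omega) he0
    rw [pow_one] at h1
    omega
  have hvQ : padicValNat p (q ^ (2 * e) - 1) = padicValNat p (q ^ e - 1) := by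
    rw [mul_comm, pow_mul]
    exact val_sq_of_dvd_sub hp2 hQ2 hpQ
  have hcN : padicValNat p (Nat.card (O (plusForm e F))) = padicValNat p (q ^ (2 * e) - 1) := by
    rw [card_O, coe_plusForm, Cfsg.Agent.S0287.result hq.symm e he0, hvQ]
    have h1 := val_card (w := 1) hp2 hq2 he0 hpk hmin le_rfl (x := q ^ e - 1) (by omega)
    simpa using h1
  have hfr : Module.finrank F (Fin w → (Fin e ⊕ Fin e → F)) = 2 * (w * e) := by
    rw [Module.finrank_pi_fintype]
    simp only [Module.finrank_fintype_fun_eq_card, Fintype.card_sum, Fintype.card_fin, Finset.sum_const,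
      Finset.card_univ, smul_eq_mul]
    ring
  have hnd : Nondeg (frm w (plusForm e F)) := nondeg_frm (nondeg_plusForm e F)
  have hnt : Nontrivial (Fin e ⊕ Fin e → F) := by
    have : Nonempty (Fin e ⊕ Fin e) := ⟨Sum.inl ⟨0, he0⟩⟩
    infer_instance
  have hG := frame_good hnd hfr hm
  rcases frame_type hp2 hq.symm hnd hfr he0 hw2 hnt hpk hmin hcN with ⟨⟨j, hj⟩, hval, -⟩ | ⟨a, b, -, -, -, h0⟩
  · have hrow := ev_frame hG (by omega) (univ_plus_gen he0) (fun σ c hc => plus_exists e σ c hc) hp2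
      (frame_index hnd hfr hm hm4 hj) (hval (by rw [hvQ, mul_comm, pow_mul]; exact val_sub hp2 hQ2 hpQ (by omega)))
    have h1 : PE (frm w (plusForm e F)) ≃* Cfsg.POmega F ⇑(plusForm (w * e) F) :=
      (quotientCenterCongr (eE hj).symm).trans (pomegaEquiv (good_plus (by omega))).symm
    rw [coe_plusForm] at h1
    have : Finite (PE (frm w (plusForm e F))) := by
      have hfinL : Finite ((Fin w → (Fin e ⊕ Fin e → F)) ≃ₗ[F] (Fin w → (Fin e ⊕ Fin e → F))) :=
        Finite.of_injective (fun f => (f : (Fin w → (Fin e ⊕ Fin e → F)) → (Fin w → (Fin e ⊕ Fin e → F))))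
          DFunLike.coe_injective
      infer_instance
    exact Ev.congr h1 hrow
  · exact absurd (padicValNat.eq_zero_of_not_dvd (ndvd_add_of_dvd_sub hp2 (Nat.one_le_pow _ _ (by omega))
      ((hd _).2 (dvd_mul_left e w)))) h0

/-- **plus type**, `p ∣ q ^ f + 1`, `m = w f`, `w` even -/
theorem ev_plus_add' {m p f : ℕ} [hp : Fact p.Prime] (hp2 : p ≠ 2) (hm : 4 ≤ m) (hm4 : m = 4 → 5 ≤ p)
    (he : orderOf ((Fintype.card F : ℕ) : ZMod p) = 2 * f) (hf : 1 ≤ f) (hem : f ∣ m) (hw : Even (m / f)) :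
    Ev p (Cfsg.POmega F (Cfsg.quadFormPlus m F)) := by
  obtain ⟨q, hq⟩ : ∃ q, q = Fintype.card F := ⟨_, rfl⟩
  have hq2 : 2 ≤ q := by rw [hq]; exact Fintype.one_lt_card
  rw [← hq] at he
  obtain ⟨w, rfl⟩ : ∃ w, m = w * f := by
    obtain ⟨w, hw⟩ := hem
    exact ⟨w, by rw [hw, mul_comm]⟩
  rw [Nat.mul_div_cancel _ (by omega)] at hw
  have hw2 : 2 ≤ w := by
    obtain ⟨j, hj⟩ := hw
    rcases Nat.eq_zero_or_pos j with rfl | h
    · rw [hj] at hm; omega
    · omega
  obtain ⟨hmin, hpk, hpQ⟩ := data_add hf hq2 he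
  have hd := dvd_iff (p := p) (q := q) (by omega) he
  have hQ2 : 2 ≤ q ^ f := by
    have h1 : q ^ 1 ≤ q ^ f := Nat.pow_le_pow_right (by omega) hf
    rw [pow_one] at h1
    omega
  have hvQ : padicValNat p (q ^ (2 * f) - 1) = padicValNat p (q ^ f + 1) := by
    rw [mul_comm, pow_mul]
    exact val_sq_of_dvd_add hp2 hQ2 hpQ
  obtain ⟨a, b, hab⟩ := H955.exists_aniso_coeff F
  have hcN : padicValNat p (Nat.card (O (minusForm (f - 1) F a b))) = padicValNat p (q ^ (2 * f) - 1) := by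
    rw [card_O, coe_minusForm, Cfsg.Agent.S0288.result hq.symm f hf a b hab, hvQ]
    have h1 := val_card (w := 1) hp2 hq2 hf hpk hmin le_rfl (x := q ^ f + 1) (by omega)
    simpa using h1
  have hfr : Module.finrank F (Fin w → ((Fin (f - 1) ⊕ Fin (f - 1)) ⊕ Fin 2 → F)) = 2 * (w * f) := by
    rw [Module.finrank_pi_fintype]
    simp only [Module.finrank_fintype_fun_eq_card, Fintype.card_sum, Fintype.card_fin, Finset.sum_const,
      Finset.card_univ, smul_eq_mul]
    have e1 : f - 1 + (f - 1) + 2 = 2 * f := by omega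
    rw [e1]
    ring
  have hnd : Nondeg (frm w (minusForm (f - 1) F a b)) := nondeg_frm (nondeg_minusForm (f - 1) F a b hab)
  have hnt : Nontrivial ((Fin (f - 1) ⊕ Fin (f - 1)) ⊕ Fin 2 → F) := by
    have : Nonempty ((Fin (f - 1) ⊕ Fin (f - 1)) ⊕ Fin 2) := ⟨Sum.inr 0⟩
    infer_instance
  have hG := frame_good hnd hfr hm
  rcases frame_type hp2 hq.symm hnd hfr hf hw2 hnt hpk hmin hcN with ⟨⟨j, hj⟩, hval, -⟩ | ⟨a', b', -, -, -, h0⟩
  · have hrow := ev_frame hG (by omega) (univ_minus_gen (f - 1) hab)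
      (fun σ c hc => minus_exists (f - 1) a b hab σ c hc) hp2
      (frame_index hnd hfr hm hm4 hj) (hval (by rw [hvQ, mul_comm w f, pow_mul]; exact val_sub_even hp2 hQ2 hpQ hw (by omega)))
    have h1 : PE (frm w (minusForm (f - 1) F a b)) ≃* Cfsg.POmega F ⇑(plusForm (w * f) F) :=
      (quotientCenterCongr (eE hj).symm).trans (pomegaEquiv (good_plus (by omega))).symm
    rw [coe_plusForm] at h1
    have : Finite (PE (frm w (minusForm (f - 1) F a b))) := by
      have hfinL : Finite ((Fin w → ((Fin (f - 1) ⊕ Fin (f - 1)) ⊕ Fin 2 → F)) ≃ₗ[F]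
          (Fin w → ((Fin (f - 1) ⊕ Fin (f - 1)) ⊕ Fin 2 → F))) :=
        Finite.of_injective (fun f => DFunLike.coe f) DFunLike.coe_injective
      infer_instance
    exact Ev.congr h1 hrow
  · refine absurd (padicValNat.eq_zero_of_not_dvd (ndvd_add_of_dvd_sub hp2 (Nat.one_le_pow _ _ (by omega))
      ((hd _).2 ?_))) h0
    exact Nat.mul_dvd_mul_right hw.two_dvd f

end Rows

end Cfsg.Agent.H948.OnFour
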