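import Cfsg.Agent.H948.OnReal
import Cfsg.Agent.H948.OnFour
import Cfsg.Agent.H948.OnCyc

/-!
# S3855 (project helper952): the rows of the even dimensional orthogonal groups (helper948)
-/

set_option autoImplicit false

namespace Cfsg.Agent.H948.OnOrth

open Cfsg Cfsg.Agent.H467.OddNorm Cfsg.Agent.H952.On

variable {p : ℕ} [hp : Fact p.Prime]

/-- **minus type** -/
theorem row_minus {F : Type} [Field F] [Fintype F] {m : ℕ} (hm : 4 ≤ m) (hp2 : p ≠ 2) (hpF : (p : F) ≠ 0) {a b : F}
    (hab : ∀ z₁ z₂ : F, z₁ ^ 2 + a * z₁ * z₂ + b * z₂ ^ 2 = 0 → z₁ = 0 ∧ z₂ = 0)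
    (hd : p ∣ Nat.card (POmega F (quadFormMinus (m - 1) F a b))) : Row p (POmega F (quadFormMinus (m - 1) F a b)) := by
  by_cases hq : p ∣ Fintype.card F ^ m + 1
  · obtain ⟨o, ho⟩ : ∃ o, orderOf ((Fintype.card F : ℕ) : ZMod p) = o := ⟨_, rfl⟩
    have hq2 : 2 ≤ Fintype.card F := Fintype.one_lt_card
    have hiff := OnPO.dvd_iff (p := p) (q := Fintype.card F) (by omega) ho
    have hpow : 1 ≤ Fintype.card F ^ m := Nat.one_le_pow _ _ (by omega)
    have h1 : ¬ o ∣ m := by
      rw [← hiff]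
      intro h
      exact OnPO.ndvd_add_of_dvd_sub hp2 hpow h hq
    have h2 : o ∣ 2 * m := by
      rw [← hiff, mul_comm 2 m, pow_mul, H709.GmnPOmega.sq_sub_one]
      exact Dvd.dvd.mul_right hq _
    have heven : Even o := by
      by_contra hodd
      rw [Nat.not_even_iff_odd] at hodd
      exact h1 (Nat.Coprime.dvd_of_dvd_mul_left (by rw [Nat.coprime_two_right]; exact hodd) h2)
    obtain ⟨f, hf⟩ := heven
    have hf' : o = 2 * f := by omega
    subst hf'
    have hfm : f ∣ m := Nat.dvd_of_mul_dvd_mul_left (by norm_num : 0 < 2) h2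
    obtain ⟨w, hw⟩ := hfm
    have hf0 : 1 ≤ f := by
      rcases Nat.eq_zero_or_pos f with h | h
      · rw [h, zero_mul] at hw; omega
      · exact h
    have hwo : Odd w := by
      by_contra hwe
      rw [Nat.not_odd_iff_even] at hwe
      apply h1
      rw [hw, mul_comm 2 f]
      exact Nat.mul_dvd_mul_left f hwe.two_dvd
    have hdiv : m / f = w := by rw [hw]; exact Nat.mul_div_cancel_left w (by omega)
    by_cases hfm : f = m
    · exact OnCyc.row_cyc_minus (by omega) hp2 (by rw [ho, hfm]) a b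
    · have hw3 : 3 ≤ w := by
        obtain ⟨k, hk⟩ := hwo
        rcases Nat.eq_zero_or_pos k with h | h
        · exfalso
          rw [hk, h] at hw
          omega
        · omega
      have hlt : f * 3 ≤ m := by rw [hw]; exact Nat.mul_le_mul_left f hw3
      refine Row.ev (OnPO.ev_minus_add hp2 ?_ ho hf0 ⟨w, hw⟩ (by omega) (by rw [hdiv]; exact hwo) a b hab)
      by_contra hm5
      have h4 : m = 4 := by omega
      rw [h4] at hw hlt
      have hf1 : f = 1 := by omega
      rw [hf1, one_mul] at hw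
      rw [← hw] at hwo
      exact absurd hwo (by decide)
  · exact Row.ev (OnReal.ev_minus_real hm hp2 hpF hq hab hd)

/-- **plus type** -/
theorem row_plus {F : Type} [Field F] [Fintype F] {m : ℕ} (hm : 4 ≤ m) (hp2 : p ≠ 2) (hpF : (p : F) ≠ 0)
    (hd : p ∣ Nat.card (POmega F (quadFormPlus m F))) : Row p (POmega F (quadFormPlus m F)) := by
  by_cases hq : p ∣ Fintype.card F ^ m - 1
  · by_cases h34 : m = 4 ∧ p = 3
    · obtain ⟨rfl, rfl⟩ := h34
      exact Row.ev (OnThree.ev_three_plus hm (by decide) (by exact_mod_cast hpF) hd)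
    have hm4 : m = 4 → 5 ≤ p := by
      intro h
      have h2 := hp.out.two_le
      by_contra h5
      have h4 : p ≠ 4 := by
        rintro rfl
        exact absurd hp.out (by norm_num)
      have h3 : p = 3 := by omega
      exact h34 ⟨h, h3⟩
    obtain ⟨o, ho⟩ : ∃ o, orderOf ((Fintype.card F : ℕ) : ZMod p) = o := ⟨_, rfl⟩
    have hq2 : 2 ≤ Fintype.card F := Fintype.one_lt_card
    have hiff := OnPO.dvd_iff (p := p) (q := Fintype.card F) (by omega) ho
    have hom : o ∣ m := (hiff m).1 hq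
    rcases Nat.even_or_odd o with ⟨f, hf⟩ | hodd
    · have hf' : o = 2 * f := by omega
      subst hf'
      obtain ⟨k, hk⟩ := hom
      have hf0 : 1 ≤ f := by
        rcases Nat.eq_zero_or_pos f with h | h
        · rw [h] at hk; omega
        · exact h
      have hdiv : m / f = 2 * k := by
        rw [hk, mul_comm 2 f, mul_assoc]
        exact Nat.mul_div_cancel_left _ (by omega)
      exact Row.ev (OnFour.ev_plus_add' hp2 hm hm4 ho hf0 ⟨2 * k, by rw [hk]; ring⟩ (by rw [hdiv]; exact even_two_mul k))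
    · by_cases heq : o = m
      · subst heq
        exact OnCyc.row_cyc_plus hm hp2 ho hodd
      · have hle := Nat.le_of_dvd (by omega) hom
        exact Row.ev (OnFour.ev_plus_sub' hp2 hm hm4 ho hodd hom (by omega))
  · exact Row.ev (OnReal.ev_plus_real hm hp2 hpF hq hd)

theorem oplus (hp2 : p ≠ 2) : RowFor p (fun X _ => ∃ (F : Type) (_ : Field F) (_ : Fintype F) (m : ℕ), (p : F) ≠ 0 ∧
    4 ≤ m ∧ Nonempty (X ≃* POmega F (quadFormPlus m F))) := by
  rintro X _ _ _ hna hd ⟨F, iF, iN, m, hF, hm, ⟨e⟩⟩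
  have : Finite (POmega F (quadFormPlus m F)) := Finite.of_equiv X e.toEquiv
  refine Row.congr e.symm (row_plus hm hp2 hF ?_)
  rwa [← Nat.card_congr e.toEquiv]

theorem ominus (hp2 : p ≠ 2) : RowFor p (fun X _ => ∃ (F : Type) (_ : Field F) (_ : Fintype F) (m : ℕ) (a b : F),
    (p : F) ≠ 0 ∧ 4 ≤ m ∧ (∀ z₁ z₂ : F, z₁ ^ 2 + a * z₁ * z₂ + b * z₂ ^ 2 = 0 → z₁ = 0 ∧ z₂ = 0) ∧
    Nonempty (X ≃* POmega F (quadFormMinus (m - 1) F a b))) := by
  rintro X _ _ _ hna hd ⟨F, iF, iN, m, a, b, hF, hm, hab, ⟨e⟩⟩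
  have : Finite (POmega F (quadFormMinus (m - 1) F a b)) := Finite.of_equiv X e.toEquiv
  refine Row.congr e.symm (row_minus hm hp2 hF hab ?_)
  rwa [← Nat.card_congr e.toEquiv]

end Cfsg.Agent.H948.OnOrth
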