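import Cfsg.Agent.H501.RowOmega
import Cfsg.Agent.H952.On.Table
import Cfsg.Agent.H128.WeightsFix
import Cfsg.Agent.H948.OnThree

/-!
# S3855 (project helper952): real elements of order `p` of orthogonal groups (helper948)

`p` prime to the number of vectors `v` with `Q v = 1`, `dim V` even, `p` odd and not the characteristic: every element
`z` of order `p` of `Ω` fixes a vector of norm one, hence a nondegenerate plane, and `z` is real in `Ω`.
-/

set_option autoImplicit false

namespace Cfsg.Agent.H948.OnReal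

open Matrix QuadraticMap Module Cfsg.Agent.H501.RowOmega
open Cfsg.Agent.ClassicalGeometry.Reflection Cfsg.Agent.H175.OmegaAdjust
open Cfsg.Agent.LieClassical.OrthForms Cfsg.Agent.H467.OddNorm

variable {F : Type*} [Field F] {ι : Type} [Fintype ι] [DecidableEq ι] (Q : QuadraticForm F (ι → F))

/-- a fixed vector of norm one -/
theorem exists_fixed [Finite F] {p : ℕ} [hp : Fact p.Prime] {x : Cfsg.isometryGroup F ⇑Q} (hx : x ^ p = 1)
    (hcount : ¬ p ∣ Nat.card {v : ι → F // Q v = 1}) : ∃ v, Q v = 1 ∧ mt x *ᵥ v = v := by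
  classical
  have : Fintype F := Fintype.ofFinite F
  have hinv : ∀ (y : Cfsg.isometryGroup F ⇑Q) (v : ι → F), mt y⁻¹ *ᵥ (mt y *ᵥ v) = v := by
    intro y v
    rw [mulVec_mulVec, ← mt_mul, inv_mul_cancel, mt_one, one_mulVec]
  let f : Cfsg.isometryGroup F ⇑Q →* Equiv.Perm {v : ι → F // Q v = 1} :=
    { toFun := fun y =>
        { toFun := fun v => ⟨mt y *ᵥ v.1, by rw [isom Q y]; exact v.2⟩
          invFun := fun v => ⟨mt y⁻¹ *ᵥ v.1, by rw [isom Q y⁻¹]; exact v.2⟩
          left_inv := fun v => Subtype.ext (hinv y v.1)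
          right_inv := fun v => Subtype.ext (by
            have := hinv y⁻¹ v.1
            rwa [inv_inv] at this) }
      map_one' := by
        apply Equiv.ext
        intro v
        apply Subtype.ext
        show mt (1 : Cfsg.isometryGroup F ⇑Q) *ᵥ v.1 = v.1
        rw [mt_one, one_mulVec]
      map_mul' := by
        intro y z
        apply Equiv.ext
        intro v
        apply Subtype.ext
        show mt (y * z) *ᵥ v.1 = mt y *ᵥ (mt z *ᵥ v.1)
        rw [mt_mul, mulVec_mulVec] }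
  have hf : f x ^ p ^ 1 = 1 := by rw [pow_one, ← map_pow, hx, map_one]
  rw [Nat.card_eq_fintype_card] at hcount
  obtain ⟨v, hv⟩ := Equiv.Perm.exists_fixed_point_of_prime hcount hf
  exact ⟨v.1, v.2, congrArg Subtype.val hv⟩

theorem mt_refl (u : ι → F) (hu : Q u ≠ 0) (y : ι → F) :
    mt (reflIso Q u hu) *ᵥ y = y - ((Q u)⁻¹ * polar ⇑Q u y) • u := by
  change ((reflIso Q u hu : Matrix.GeneralLinearGroup ι F) : Matrix ι ι F) *ᵥ y = _
  rw [coe_reflIso, reflectionMatrix_mulVec]

/-- `det (M - 1) = 0` for an isometry of determinant `-1` of a space of even dimension -/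
theorem det_sub_one (hQ : (polarBilin Q).Nondegenerate) (h2 : (2 : F) ≠ 0) (hev : Even (Fintype.card ι))
    (g : Cfsg.isometryGroup F ⇑Q) (hg : (mt g).det = -1) : (mt g - 1).det = 0 := by
  let B : Matrix ι ι F := LinearMap.toMatrix₂' F (polarBilin Q)
  have hB : ∀ v w, v ⬝ᵥ (B *ᵥ w) = polar ⇑Q v w := by
    intro v w
    have : polarBilin Q v w = v ⬝ᵥ (B *ᵥ w) := by
      have h1 := Matrix.toLinearMap₂'_apply' B v w
      rw [Matrix.toLinearMap₂'_toMatrix'] at h1
      exact h1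
    rw [← this]
    rfl
  have hdet : B.det ≠ 0 := (LinearMap.BilinForm.nondegenerate_iff_det_ne_zero (Pi.basisFun F ι)).1 hQ
  have hXB : (mt g)ᵀ * B * mt g = B := by
    apply Matrix.ext_of_mulVec_single
    intro j
    apply dotProduct_eq
    intro v
    rw [dotProduct_comm, ← mulVec_mulVec, ← mulVec_mulVec, dotProduct_mulVec, vecMul_transpose, hB,
      isom_polar, dotProduct_comm, hB]
  have h1 : ((mt g)ᵀ - 1) * B * mt g = -(B * (mt g - 1)) := by
    rw [sub_mul, sub_mul, hXB, mul_sub, one_mul, mul_one]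
    abel
  have h3 := congrArg Matrix.det h1
  rw [det_neg, det_mul, det_mul, det_mul, hg, hev.neg_one_pow, one_mul] at h3
  have h4 : ((mt g)ᵀ - 1).det = (mt g - 1).det := by
    rw [← det_transpose (mt g - 1), transpose_sub, transpose_one]
  rw [h4] at h3
  have h5 : (2 * B.det) * (mt g - 1).det = 0 := by linear_combination -h3
  exact (mul_eq_zero.1 h5).resolve_left (mul_ne_zero h2 hdet)

/-- the fixed space has dimension at least two -/
theorem two_le_fix (hQ : (polarBilin Q).Nondegenerate) (h2 : (2 : F) ≠ 0) (hev : Even (Fintype.card ι)) {p : ℕ}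
    (hp : Odd p) {x : Cfsg.isometryGroup F ⇑Q} (hx : x ^ p = 1) {v : ι → F} (hv1 : Q v = 1) (hv : mt x *ᵥ v = v) :
    2 ≤ finrank F (LinearMap.ker (rho ⇑Q x - 1)) := by
  have hv0 : Q v ≠ 0 := by rw [hv1]; exact one_ne_zero
  have hvne : v ≠ 0 := by
    rintro rfl
    rw [QuadraticMap.map_zero] at hv1
    exact zero_ne_one hv1
  have hdetx : (mt x).det = 1 := by
    have h1 : (mt x).det ^ p = 1 := by rw [← det_pow, ← mt_pow, hx, mt_one, det_one]
    have h3 : (mt x).det = 1 ∨ (mt x).det = -1 := by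
      let B : Matrix ι ι F := LinearMap.toMatrix₂' F (polarBilin Q)
      have hB : ∀ v w, v ⬝ᵥ (B *ᵥ w) = polar ⇑Q v w := by
        intro v w
        have : polarBilin Q v w = v ⬝ᵥ (B *ᵥ w) := by
          have h1 := Matrix.toLinearMap₂'_apply' B v w
          rw [Matrix.toLinearMap₂'_toMatrix'] at h1
          exact h1
        rw [← this]
        rfl
      have hdet : B.det ≠ 0 := (LinearMap.BilinForm.nondegenerate_iff_det_ne_zero (Pi.basisFun F ι)).1 hQ
      have hXB : (mt x)ᵀ * B * mt x = B := by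
        apply Matrix.ext_of_mulVec_single
        intro j
        apply dotProduct_eq
        intro v
        rw [dotProduct_comm, ← mulVec_mulVec, ← mulVec_mulVec, dotProduct_mulVec, vecMul_transpose, hB,
          isom_polar, dotProduct_comm, hB]
      have h3 := congrArg Matrix.det hXB
      rw [det_mul, det_mul, det_transpose] at h3
      have h4 : ((mt x).det - 1) * ((mt x).det + 1) = 0 := by
        have h5 : B.det * (((mt x).det - 1) * ((mt x).det + 1)) = 0 := by linear_combination h3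
        exact (mul_eq_zero.1 h5).resolve_left hdet
      rcases mul_eq_zero.1 h4 with h | h
      · exact Or.inl (sub_eq_zero.1 h)
      · exact Or.inr (eq_neg_of_add_eq_zero_left h)
    rcases h3 with h3 | h3
    · exact h3
    · rw [h3, hp.neg_one_pow] at h1
      rw [h3, h1]
  obtain ⟨w, hw0, hw⟩ : ∃ w, w ≠ 0 ∧ mt (x * reflIso Q v hv0) *ᵥ w = w := by
    have h1 := det_sub_one Q hQ h2 hev (x * reflIso Q v hv0) (by
      rw [mt_mul, det_mul, hdetx, one_mul]
      exact det_reflIso Q v hv0)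
    obtain ⟨w, hw0, hw⟩ := Matrix.exists_mulVec_eq_zero_iff.2 h1
    refine ⟨w, hw0, ?_⟩
    rw [sub_mulVec, one_mulVec, sub_eq_zero] at hw
    exact hw
  rw [mt_mul, ← mulVec_mulVec, mt_refl, mulVec_sub, mulVec_smul, hv, hv1, inv_one, one_mul] at hw
  -- `x w - polar v w • v = w`
  have hpv : polar ⇑Q v w = 0 := by
    have h1 : polar ⇑Q v (mt x *ᵥ w) = polar ⇑Q v w := by
      conv_lhs => rw [← hv]
      exact isom_polar Q x v w
    have h3 : polar ⇑Q v (mt x *ᵥ w - polar ⇑Q v w • v) = polar ⇑Q v w := by rw [hw]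
    have h6 : polar ⇑Q v v = 2 := by rw [polar_self, hv1, two_smul, one_add_one_eq_two]
    rw [polar_sub_right, polar_smul_right, h1, h6, smul_eq_mul] at h3
    have h4 : (2 : F) * polar ⇑Q v w = 0 := by linear_combination -h3
    exact (mul_eq_zero.1 h4).resolve_left h2
  have hwx : mt x *ᵥ w = w := by
    rw [hpv, zero_smul, sub_zero] at hw
    exact hw
  have hmem : ∀ w, mt x *ᵥ w = w → w ∈ LinearMap.ker (rho ⇑Q x - 1) := by
    intro w hw
    rw [LinearMap.mem_ker, LinearMap.sub_apply, sub_eq_zero, rho_apply]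
    exact hw
  have hli : LinearIndependent F ![(⟨v, hmem v hv⟩ : LinearMap.ker (rho ⇑Q x - 1)), ⟨w, hmem w hwx⟩] := by
    rw [LinearIndependent.pair_iff]
    intro s t hst
    have h1 : s • v + t • w = 0 := congrArg Subtype.val hst
    have h3 : polar ⇑Q v (s • v + t • w) = 0 := by rw [h1, polar_zero_right]
    have h6 : polar ⇑Q v v = 2 := by rw [polar_self, hv1, two_smul, one_add_one_eq_two]
    rw [polar_add_right, polar_smul_right, polar_smul_right, hpv, h6, smul_zero, add_zero, smul_eq_mul] at h3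
    have hs : s = 0 := (mul_eq_zero.1 h3).resolve_right h2
    rw [hs, zero_smul, zero_add] at h1
    exact ⟨hs, (smul_eq_zero.1 h1).resolve_right hw0⟩
  have := hli.fintype_card_le_finrank
  simpa using this

/-- an element of order `p` of `Ω` with a fixed vector of norm one is real in `Ω` (even dimension) -/
theorem real_fix [Finite F] (hQ : (polarBilin Q).Nondegenerate) (hn : 4 < Fintype.card ι)
    (hev : Even (Fintype.card ι)) {p : ℕ} (hp : p.Prime) (hp2 : p ≠ 2) (hpF : ¬ p ∣ Nat.card F)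
    {x : Cfsg.Omega F ⇑Q} (hx : x ^ p = 1) {v : ι → F} (hv1 : Q v = 1) (hv : mt x.1 *ᵥ v = v) :
    ∃ g : Cfsg.Omega F ⇑Q, g * x * g⁻¹ = x⁻¹ := by
  have : Finite (Cfsg.isometryGroup F ⇑Q) := Subtype.finite
  have hx' : x.1 ^ p = 1 := congrArg Subtype.val hx
  obtain ⟨g, hg⟩ := isConj_iff.1 (conj_inv Q hQ hp hp2 hpF hx')
  have hv0 : v ≠ 0 := by
    rintro rfl
    rw [QuadraticMap.map_zero] at hv1
    exact zero_ne_one hv1
  set W : Submodule F (ι → F) := LinearMap.ker (rho ⇑Q x.1 - 1) with hW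
  have hmem : ∀ w, w ∈ W ↔ mt x.1 *ᵥ w = w := by
    intro w
    rw [hW, LinearMap.mem_ker, LinearMap.sub_apply, sub_eq_zero, rho_apply]
    rfl
  have hWn : ∀ w ∈ W, (∀ y ∈ W, polar ⇑Q w y = 0) → w = 0 := by
    intro w hw h
    exact fix_nondeg Q hQ hp hpF hx' ((hmem w).1 hw) (fun y hy => h y ((hmem y).2 hy))
  let K : Subgroup (Cfsg.isometryGroup F ⇑Q) := Subgroup.centralizer {x.1}
  have hK : ∀ u ∈ W, ∀ hu : Q u ≠ 0, reflIso Q u hu ∈ K := by
    intro u hu hQu
    rw [Subgroup.mem_centralizer_singleton_iff]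
    apply mt_inj
    rw [mt_mul, mt_mul]
    apply Matrix.ext_of_mulVec_single
    intro j
    have h2 := (hmem u).1 hu
    rw [← mulVec_mulVec, ← mulVec_mulVec, mt_refl, mt_refl, mulVec_sub, mulVec_smul, h2]
    have h3 : polar ⇑Q u (mt x.1 *ᵥ Pi.single j 1) = polar ⇑Q u (Pi.single j 1) := by
      conv_lhs => rw [← h2]
      rw [isom_polar]
    rw [h3]
  have hadj : ∃ s ∈ K, g * s ∈ Cfsg.Omega F ⇑Q := by
    by_cases h2 : (2 : F) = 0
    · exact adjust_two Q h2 hQ (Or.inr (by omega)) K v (by rw [hv1]; exact one_ne_zero)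
        (hK v ((hmem v).2 hv) _) g
    · have hdim := two_le_fix Q hQ h2 hev (hp.odd_of_ne_two hp2) hx' hv1 hv
      have : Fintype F := Fintype.ofFinite F
      obtain ⟨c, hc⟩ := FiniteField.exists_nonsquare (F := F) (by
        intro h
        have : CharP F 2 := ringChar.of_eq h
        exact h2 (CharP.cast_eq_zero F 2))
      have hc0 : c ≠ 0 := by
        rintro rfl
        exact hc (IsSquare.zero)
      obtain ⟨w, hwW, hw⟩ := exists_value h2 Q W hdim hWn c
      have hu0 : Q v ≠ 0 := by rw [hv1]; exact one_ne_zero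
      have hw0 : Q w ≠ 0 := by rw [hw]; exact hc0
      exact adjust_odd_refl Q h2 hQ (by omega) K v w hu0 hw0 (by rw [hv1, hw, one_mul]; exact hc)
        (hK v ((hmem v).2 hv) hu0) (hK w hwW hw0) g
  obtain ⟨s, hs, hgs⟩ := hadj
  refine ⟨⟨g * s, hgs⟩, ?_⟩
  apply Subtype.ext
  change g * s * x.1 * (g * s)⁻¹ = x.1⁻¹
  have h1 : s * x.1 = x.1 * s := (Subgroup.mem_centralizer_singleton_iff.1 hs)
  rw [_root_.mul_inv_rev, mul_assoc g s, h1, ← hg]
  group

/-- **the criterion**: `p` prime to the number of vectors of norm one -/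
theorem ev_of_count [Finite F] (hG : Cfsg.Agent.LieClassical.OrthTrans.Good Q) (hev : Even (Fintype.card ι)) {p : ℕ}
    [hp : Fact p.Prime] (hp2 : p ≠ 2) (hpF : (p : F) ≠ 0) (hcount : ¬ p ∣ Nat.card {v : ι → F // Q v = 1})
    (hd : p ∣ Nat.card (Cfsg.POmega F ⇑Q)) : Ev p (Cfsg.POmega F ⇑Q) := by
  have hQ : (polarBilin Q).Nondegenerate := ⟨fun v hv => hG.nondeg v hv, fun v hv => hG.nondeg v fun w => by
    rw [polar_comm]
    exact hv w⟩
  have hn : 4 < Fintype.card ι := by
    have := hG.dim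
    rw [Module.finrank_fintype_fun_eq_card] at this
    omega
  have hpF' : ¬ p ∣ Nat.card F := by
    intro h
    have := Fintype.ofFinite F
    rw [Nat.card_eq_fintype_card] at h
    obtain ⟨r, hr⟩ := CharP.exists F
    have hrp := CharP.char_is_prime F r
    obtain ⟨n, -, hn⟩ := FiniteField.card F r
    rw [hn] at h
    have h1 := hp.out.dvd_of_dvd_pow h
    have h2 := (Nat.prime_dvd_prime_iff_eq hp.out hrp).1 h1
    subst h2
    exact hpF (CharP.cast_eq_zero F p)
  have hfinI : Finite (Cfsg.isometryGroup F ⇑Q) := Subtype.finite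
  have hfinO : Finite (Cfsg.Omega F ⇑Q) := Subtype.finite
  have hfinP : Finite (Cfsg.POmega F ⇑Q) :=
    Finite.of_surjective _ (QuotientGroup.mk'_surjective (Subgroup.center (Cfsg.Omega F ⇑Q)))
  have hodd : Odd p := hp.out.odd_of_ne_two hp2
  let e := Cfsg.Agent.ClassicalGeometry.OrthSemiForms.pomegaEquiv hG
  have hZ : Subgroup.center (Cfsg.POmega F ⇑Q) = ⊥ := by
    have h1 := Cfsg.Agent.H709.OrthFrame.center_PE hG
    rw [eq_bot_iff]
    intro z hz
    have h2 : e z ∈ Subgroup.center (Cfsg.Agent.H709.OrthFrame.PE Q) := by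
      rw [← Cfsg.Agent.LieClassical.OrthFinite.map_center_mulEquiv e]
      exact ⟨z, hz, rfl⟩
    rw [h1, Subgroup.mem_bot] at h2
    exact (map_eq_one_iff e e.injective).1 h2
  refine Ev.of_real hp2 hZ hd fun z hz _ => ?_
  obtain ⟨h, rfl⟩ := QuotientGroup.mk_surjective z
  have hzp : (QuotientGroup.mk h : Cfsg.POmega F ⇑Q) ^ p = 1 := by rw [← hz, pow_orderOf_eq_one]
  have h1 : h ^ p ∈ Subgroup.center (Cfsg.Omega F ⇑Q) := by
    rw [← QuotientGroup.eq_one_iff]
    exact hzp
  have hsq : ∀ c : Cfsg.Omega F ⇑Q, c ∈ Subgroup.center (Cfsg.Omega F ⇑Q) → c ^ 2 = 1 := by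
    intro c hc
    let e' : Cfsg.Omega F ⇑Q ≃* ↥(Cfsg.Agent.LieClassical.OrthCore.E Q) :=
      (Cfsg.Agent.LieClassical.OrthFinite.omegaEquiv Q).trans (MulEquiv.subgroupCongr hG.commutator_eq_E)
    have h1 : e' c ∈ Subgroup.center ↥(Cfsg.Agent.LieClassical.OrthCore.E Q) := by
      rw [← Cfsg.Agent.LieClassical.OrthFinite.map_center_mulEquiv e']
      exact ⟨c, hc, rfl⟩
    have h2 := OnThree.center_sq hG h1
    rw [← map_mul] at h2
    rw [pow_two]
    exact (map_eq_one_iff e' e'.injective).1 h2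
  have h2 : (h ^ (p + 1)) ^ p = 1 := by
    obtain ⟨k, hk⟩ := hodd
    rw [← pow_mul, mul_comm, pow_mul, show p + 1 = 2 * (k + 1) by omega, pow_mul, hsq _ h1, one_pow]
  have h4 : (QuotientGroup.mk (h ^ (p + 1)) : Cfsg.POmega F ⇑Q) = QuotientGroup.mk h := by
    rw [pow_succ, QuotientGroup.mk_mul, (QuotientGroup.eq_one_iff _).2 h1, one_mul]
  obtain ⟨v, hv1, hv⟩ := exists_fixed Q (x := (h ^ (p + 1)).1) (congrArg Subtype.val h2) hcount
  obtain ⟨g, hg⟩ := real_fix Q hQ hn hev hp.out hp2 hpF' h2 hv1 hv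
  refine ⟨QuotientGroup.mk g, ?_⟩
  rw [← h4, ← QuotientGroup.mk_mul, ← QuotientGroup.mk_inv, ← QuotientGroup.mk_mul, hg, QuotientGroup.mk_inv]

/-- **plus type**, `p ∤ q ^ m - 1` -/
theorem ev_plus_real {F : Type*} [Field F] [Fintype F] {m : ℕ} (hm : 4 ≤ m) {p : ℕ} [hp : Fact p.Prime] (hp2 : p ≠ 2)
    (hpF : (p : F) ≠ 0) (hq : ¬ p ∣ Fintype.card F ^ m - 1)
    (hd : p ∣ Nat.card (Cfsg.POmega F (Cfsg.quadFormPlus m F))) : Ev p (Cfsg.POmega F (Cfsg.quadFormPlus m F)) := by
  have hq2 : 2 ≤ Fintype.card F := Fintype.one_lt_card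
  have hpq : ¬ p ∣ Fintype.card F := by
    intro h
    obtain ⟨r, hr⟩ := CharP.exists F
    have hrp := CharP.char_is_prime F r
    obtain ⟨n, -, hn⟩ := FiniteField.card F r
    rw [hn] at h
    have h1 := hp.out.dvd_of_dvd_pow h
    have h2 := (Nat.prime_dvd_prime_iff_eq hp.out hrp).1 h1
    subst h2
    exact hpF (CharP.cast_eq_zero F p)
  classical
  have hc := LieClassical.QuadCount.card_plus (F := F) m 1
  rw [if_neg one_ne_zero, add_zero] at hc
  have hcount : ¬ p ∣ Nat.card {v : Fin m ⊕ Fin m → F // Cfsg.quadFormPlus m F v = 1} := by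
    intro h
    set N := Nat.card {v : Fin m ⊕ Fin m → F // Cfsg.quadFormPlus m F v = 1} with hN
    have h1 : Fintype.card F * N = Fintype.card F ^ m * (Fintype.card F ^ m - 1) := by
      rw [Nat.mul_sub_one, ← pow_add, ← two_mul]
      omega
    have h2 : p ∣ Fintype.card F ^ m * (Fintype.card F ^ m - 1) := by
      rw [← h1]
      exact Dvd.dvd.mul_left h _
    rcases (hp.out.dvd_mul).1 h2 with h3 | h3
    · exact hpq (hp.out.dvd_of_dvd_pow h3)
    · exact hq h3
  rw [← coe_plusForm] at hd hcount ⊢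
  refine ev_of_count _ (Cfsg.Agent.ClassicalGeometry.OrthSemiForms.good_plus (by omega)) ?_ hp2 hpF hcount hd
  simp only [Fintype.card_sum, Fintype.card_fin]
  exact ⟨m, rfl⟩

/-- **minus type**, `p ∤ q ^ m + 1` -/
theorem ev_minus_real {F : Type} [Field F] [Fintype F] {m : ℕ} (hm : 4 ≤ m) {p : ℕ} [hp : Fact p.Prime] (hp2 : p ≠ 2)
    (hpF : (p : F) ≠ 0) (hq : ¬ p ∣ Fintype.card F ^ m + 1) {a b : F}
    (hab : ∀ z₁ z₂ : F, z₁ ^ 2 + a * z₁ * z₂ + b * z₂ ^ 2 = 0 → z₁ = 0 ∧ z₂ = 0)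
    (hd : p ∣ Nat.card (Cfsg.POmega F (Cfsg.quadFormMinus (m - 1) F a b))) :
    Ev p (Cfsg.POmega F (Cfsg.quadFormMinus (m - 1) F a b)) := by
  have hpq : ¬ p ∣ Fintype.card F := by
    intro h
    obtain ⟨r, hr⟩ := CharP.exists F
    have hrp := CharP.char_is_prime F r
    obtain ⟨n, -, hn⟩ := FiniteField.card F r
    rw [hn] at h
    have h1 := hp.out.dvd_of_dvd_pow h
    have h2 := (Nat.prime_dvd_prime_iff_eq hp.out hrp).1 h1
    subst h2
    exact hpF (CharP.cast_eq_zero F p)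
  have hcount : ¬ p ∣ Nat.card {v : (Fin (m - 1) ⊕ Fin (m - 1)) ⊕ Fin 2 → F //
      Cfsg.quadFormMinus (m - 1) F a b v = 1} := by
    rw [H128.WeightsFix.card_minus_one (m - 1) a b hab, show m - 1 + 1 = m by omega]
    intro h
    rcases (hp.out.dvd_mul).1 h with h3 | h3
    · exact hpq (hp.out.dvd_of_dvd_pow h3)
    · exact hq h3
  rw [← coe_minusForm] at hd hcount ⊢
  refine ev_of_count _ (Cfsg.Agent.ClassicalGeometry.OrthSemiForms.good_minus (by omega) a b hab) ?_ hp2 hpF hcount hd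
  simp only [Fintype.card_sum, Fintype.card_fin]
  exact ⟨m, by omega⟩

end Cfsg.Agent.H948.OnReal
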