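import Cfsg.Agent.H948.SynRed
import Cfsg.Agent.H412.AltIndex
import Cfsg.Agent.H94.Matching
import Cfsg.Agent.S3419

/-!
# S4286: the alternating groups (helper948)
-/

set_option autoImplicit false

namespace Cfsg.Agent.H948.SynAlt

open Subgroup Cfsg.Agent.H948.Syn

/-- an odd prime divisor of `n - 2` if `n = 2 ^ a ≥ 8` -/
theorem exists_odd {n a : ℕ} (h6 : 6 ≤ n) (h : n = 2 ^ a) : ∃ s : ℕ, s.Prime ∧ s ≠ 2 ∧ s ≤ n ∧ n % s ≠ 1 := by
  obtain ⟨b, rfl⟩ : ∃ b, a = b + 3 := by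
    refine ⟨a - 3, ?_⟩
    have : 2 < a := by
      by_contra hcon
      have : 2 ^ a ≤ 2 ^ 2 := Nat.pow_le_pow_right (by norm_num) (by omega)
      omega
    omega
  have hm : 2 ^ (b + 2) - 1 ≠ 1 := by
    have : 2 ^ 2 ≤ 2 ^ (b + 2) := Nat.pow_le_pow_right (by norm_num) (by omega)
    omega
  obtain ⟨s, hs, hd⟩ := Nat.exists_prime_and_dvd hm
  have h1 : 1 ≤ 2 ^ (b + 2) := Nat.one_le_two_pow
  have hs2 : s ≠ 2 := by
    rintro rfl
    have h2 : 2 ∣ 2 ^ (b + 2) := dvd_pow_self 2 (by omega)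
    omega
  have hpos : 0 < 2 ^ (b + 2) - 1 := by
    have : 2 ^ 2 ≤ 2 ^ (b + 2) := Nat.pow_le_pow_right (by norm_num) (by omega)
    omega
  have hle : s ≤ 2 ^ (b + 2) - 1 := Nat.le_of_dvd hpos hd
  refine ⟨s, hs, hs2, ?_, ?_⟩
  · rw [h, show b + 3 = (b + 2) + 1 from rfl, pow_succ]
    omega
  · obtain ⟨c, hc⟩ := hd
    have h3 : n = s * (2 * c) + 2 := by
      rw [h, show b + 3 = (b + 2) + 1 from rfl, pow_succ]
      have : 2 ^ (b + 2) = s * c + 1 := by omega
      rw [this]; ring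
    rw [h3, Nat.mul_add_mod]
    have h4 : 3 ≤ s := by
      have := hs.two_le
      omega
    rw [Nat.mod_eq_of_lt (by omega)]
    norm_num

theorem card_alt {n : ℕ} (hn : 5 ≤ n) : 2 * Nat.card (alternatingGroup (Fin n)) = n.factorial := by
  have : Nontrivial (Fin n) := Fin.nontrivial_iff_two_le.2 (by omega)
  rw [nat_card_alternatingGroup, Nat.card_eq_fintype_card, Fintype.card_fin]
  exact Nat.mul_div_cancel' (Nat.dvd_factorial (by norm_num) (by omega))

theorem dvd_card {n s : ℕ} (hn : 5 ≤ n) (hs : s.Prime) (hsn : s ≤ n) : s ∣ Nat.card (alternatingGroup (Fin n)) := by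
  have h := card_alt hn
  have h1 : s ∣ n.factorial := Nat.dvd_factorial hs.pos hsn
  by_cases h2 : s = 2
  · subst h2
    have h3 : 4 ∣ n.factorial := Nat.dvd_factorial (by norm_num) (by omega)
    rw [← h] at h3
    exact Nat.dvd_of_mul_dvd_mul_left (k := 2) (by norm_num) (by simpa using h3)
  · rw [← h] at h1
    exact (Nat.Coprime.dvd_mul_left ((Nat.coprime_primes hs Nat.prime_two).2 h2)).1 h1

/-- **the alternating groups** -/
theorem false_of_alt {n : ℕ} (hn : 5 ≤ n) {S : Set ℕ} (h : Cfg (alternatingGroup (Fin n)) S) : False := by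
  have hidx : ∀ {p a s : ℕ} (_ : p.Prime) (_ : s.Prime) (_ : 1 ≤ a),
      Nat.card (Sylow s (alternatingGroup (Fin n))) = p ^ a → n = p ^ a := by
    intro p a s hp hs ha hc
    have := Fact.mk hs
    obtain ⟨P⟩ : Nonempty (Sylow s (alternatingGroup (Fin n))) := inferInstance
    rw [card_eq_index P] at hc
    exact H412.AltIndex.card_eq_of_iso hn (MulEquiv.refl _) _ hp ha hc
  by_cases h6 : 6 ≤ n
  · have h2G := dvd_card hn Nat.prime_two (by omega)
    have hopp : ∀ t : ℕ, t.Prime → t ∣ Nat.card (alternatingGroup (Fin n)) → t ≠ 2 → ¬ (t ∈ S ↔ 2 ∈ S) := by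
      intro t ht htG ht2 hiff
      have := Fact.mk ht
      have := Fact.mk Nat.prime_two
      obtain ⟨P⟩ : Nonempty (Sylow 2 (alternatingGroup (Fin n))) := inferInstance
      obtain ⟨Q, hQ⟩ := h.exists_norm h2G hiff.symm P
      have h1 : (Q : Subgroup (alternatingGroup (Fin n))) ≤ P :=
        hQ.trans (H94.Syl2Sym.alt_selfNorm (by rw [Fintype.card_fin]; exact h6) P)
      have h3 : t ∣ Nat.card (P : Subgroup (alternatingGroup (Fin n))) :=
        (Q.dvd_card_of_dvd_card htG).trans (Subgroup.card_dvd_of_le h1)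
      obtain ⟨k, hk⟩ := IsPGroup.iff_card.1 P.2
      rw [hk] at h3
      exact ht2 ((Nat.prime_dvd_prime_iff_eq ht Nat.prime_two).1 (ht.dvd_of_dvd_pow h3))
    have hpow : ∀ s : ℕ, s.Prime → s ≠ 2 → s ≤ n → Nat.card (Sylow s (alternatingGroup (Fin n))) = n ∧
        ∃ a, n = 2 ^ a := by
      intro s hs hs2 hsn
      obtain ⟨a, ha, hc⟩ := h.eq_pow hopp hs (dvd_card hn hs hsn) hs2
      have h1 := hidx Nat.prime_two hs ha hc
      exact ⟨by rw [hc]; exact h1.symm, a, h1⟩
    obtain ⟨a, ha⟩ := (hpow 3 Nat.prime_three (by norm_num) (by omega)).2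
    obtain ⟨s, hs, hs2, hsn, hmod⟩ := exists_odd h6 ha
    have := Fact.mk hs
    have h1 := (hpow s hs hs2 hsn).1
    have h3 := Cfg.mod_eq (G := alternatingGroup (Fin n)) (r := s)
    rw [h1] at h3
    exact hmod h3
  · obtain rfl : n = 5 := by omega
    have hadj : ∀ t : ℕ, t.Prime → t ≠ 5 → t ∣ Nat.card (alternatingGroup (Fin 5)) → ¬ (t ∈ S ↔ 5 ∈ S) := by
      intro t ht ht5 htG
      refine h.opp_of_not_adj ht Nat.prime_five htG (dvd_card hn Nat.prime_five le_rfl) fun x y hx hy hxy => ?_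
      have h1 := Cfsg.Agent.S3419.nonAdj_alt_of_sum (n := 5) ht Nat.prime_five ht5
        (by have := ht.two_le; omega) (x * y)
      apply h1
      rw [(show Commute x y from hxy).orderOf_mul_eq_mul_orderOf_of_coprime
        (by rw [hx, hy]; exact (Nat.coprime_primes ht Nat.prime_five).2 ht5), hx, hy]
    have h3G := dvd_card hn Nat.prime_three (by norm_num)
    obtain ⟨a, ha, hc⟩ := h.eq_pow (fun t ht htG ht5 => hadj t ht ht5 htG) Nat.prime_three h3G (by norm_num)
    have h1 := hidx Nat.prime_five Nat.prime_three ha hc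
    have := Fact.mk Nat.prime_three
    have h3 := Cfg.mod_eq (G := alternatingGroup (Fin 5)) (r := 3)
    rw [hc, ← h1] at h3
    norm_num at h3

end Cfsg.Agent.H948.SynAlt
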