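import Cfsg.Agent.H948.SynSpor
import Cfsg.Agent.Co2Type.Quad
import Cfsg.Agent.KFacts.HN.Large
import Cfsg.Agent.KFacts.HN.PCard
import Cfsg.Agent.NotCT.Orders

/-!
# S4286: the Harada-Norton group (helper948)
-/

set_option autoImplicit false

namespace Cfsg.Agent.H948.SynSpor

open Subgroup Cfsg Cfsg.Agent.H948.Syn Cfsg.Agent.Co2Type.Quad

universe u

variable {G : Type u} [Group G] {S : Set ℕ}

theorem hZ_of_large [Finite G] {z : G} {Q : Subgroup G} (L : Large Q z) :
    ∀ T : Sylow 2 G, z ∈ (T : Subgroup G) → (∀ x ∈ (T : Subgroup G), x * z = z * x) →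
      ∀ y ∈ (T : Subgroup G), (∀ x ∈ (T : Subgroup G), x * y = y * x) → y = 1 ∨ y = z := by
  refine hZ_of Q ?_ L.conj_mem fun y hy hyQ => L.cent y (L.self y hy fun x hx => hyQ x hx) hyQ
  rintro ⟨x, hx⟩
  refine ⟨2, Subtype.ext ?_⟩
  show x ^ 2 ^ 2 = 1
  have e : x ^ 2 ^ 2 = (x * x) * (x * x) := by
    rw [show (2 : ℕ) ^ 2 = 4 by norm_num, pow_succ, pow_succ, pow_succ, pow_one]; group
  rw [e]
  rcases L.sq x hx with h | h
  · rw [h, one_mul]
  · rw [h, L.z_sq]

theorem hn [Finite G] (h : Cfg G S) (hG : Spor.IsoHN G) : False := by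
  have hc := NotCT.Orders.hn hG
  obtain ⟨e⟩ := hG
  have hfin : Finite Spor.HN := Finite.of_equiv G e.toEquiv
  have hc' : Nat.card Spor.HN = 273030912000000 := by rw [← hc, Nat.card_congr e.toEquiv]
  have h' : Cfg Spor.HN S := @Cfg.congr G _ S Spor.HN inferInstance _ e h
  have L := KFacts.HN.large
  have hZ := hZ_of_large L
  have hopp : ∀ t ∈ [3, 5, 7, 11, 19], ¬ (t ∈ S ↔ 2 ∈ S) := by
    intro t ht
    have key : ∀ t k, t.Prime → t ^ k ∣ 273030912000000 → ¬ t ^ k ∣ 3686400 → ¬ (t ∈ S ↔ 2 ∈ S) := by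
      intro t k ht h1 h2
      exact opp_of_cent h' L.z_ne L.z_sq hZ KFacts.HN.PCard.card_centralizer (a := 14) (by norm_num)
        (by rw [hc']; norm_num) ht (by rw [hc']; exact h1) h2
    fin_cases ht
    · exact key 3 3 (by norm_num) (by norm_num) (by norm_num)
    · exact key 5 3 (by norm_num) (by norm_num) (by norm_num)
    · exact key 7 1 (by norm_num) (by norm_num) (by norm_num)
    · exact key 11 1 (by norm_num) (by norm_num) (by norm_num)
    · exact key 19 1 (by norm_num) (by norm_num) (by norm_num)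
  exact false_of_list h' (L := [3, 5, 7, 11, 19]) (by simp; norm_num) hopp (A := 2 ^ 14) (B := 3 ^ 6 * 5 ^ 6 * 7 * 11 * 19)
    (k := 6) (by rw [hc']; norm_num) (by norm_num) (r := 19) (by simp) (by norm_num)
    (num_pow Nat.prime_two (by decide +kernel))

end Cfsg.Agent.H948.SynSpor
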